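import Cfsg.Agent.Lib.Golay.OutGroups
import Cfsg.Agent.Lib.Golay.Stab
import Cfsg.Agent.S5005

/-!
# The subgroups of index 22 of `M22` are the point stabilisers, and `M22` is 2-transitive
-/

set_option autoImplicit false
set_option maxRecDepth 100000

namespace Cfsg.Agent.Lib.HSRec.M22Sub

open Cfsg Cfsg.Agent.Lib.Golay.Core Cfsg.Agent.Lib.Golay.Perm Cfsg.Agent.Lib.Golay.OutGroups
  Cfsg.Agent.Lib.Golay.Stab

section General

variable {X : Type*} [Fintype X] [DecidableEq X]

/-- The fixed points of a permutation. -/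
def F (σ : Equiv.Perm X) : Finset X := Finset.univ.filter fun x => σ x = x

theorem mem_F {σ : Equiv.Perm X} {x : X} : x ∈ F σ ↔ σ x = x := by simp [F]

theorem F_conj (u σ : Equiv.Perm X) : (F (u * σ * u⁻¹)).card = (F σ).card := by
  have h : F (u * σ * u⁻¹) = (F σ).image u := by
    ext x
    simp only [mem_F, Finset.mem_image, Equiv.Perm.mul_apply]
    constructor
    · intro h
      refine ⟨u⁻¹ x, ?_, by simp⟩
      apply u.injective
      rw [h]
      simp
    · rintro ⟨y, hy, rfl⟩
      simp [hy]
  rw [h, Finset.card_image_of_injective _ u.injective]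

theorem mem_F_zpowers {σ : Equiv.Perm X} {x : X} (h : σ x = x) {τ : Equiv.Perm X}
    (hτ : τ ∈ Subgroup.zpowers σ) : τ x = x := by
  obtain ⟨k, rfl⟩ := hτ
  have : σ ∈ MulAction.stabilizer (Equiv.Perm X) x := h
  exact (Subgroup.zpow_mem _ this k)

/-- Two elements of prime order `p`, when `p²` does not divide the order of the group, have the
same number of fixed points. -/
theorem card_F_of_prime {K : Subgroup (Equiv.Perm X)} {p : ℕ} [hp : Fact p.Prime]
    (hp2 : ¬ p ^ 2 ∣ Nat.card K) {y y₀ : Equiv.Perm X} (hy : y ∈ K) (hy₀ : y₀ ∈ K)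
    (oy : orderOf y = p) (oy₀ : orderOf y₀ = p) : (F y).card = (F y₀).card := by
  classical
  let a : K := ⟨y, hy⟩
  let a₀ : K := ⟨y₀, hy₀⟩
  have oa : orderOf a = p := by rw [← Subgroup.orderOf_coe]; exact oy
  have oa₀ : orderOf a₀ = p := by rw [← Subgroup.orderOf_coe]; exact oy₀
  have key : ∀ c : K, orderOf c = p → ∃ Q : Sylow p K, (Q : Subgroup K) = Subgroup.zpowers c := by
    intro c hc
    have hP : IsPGroup p (Subgroup.zpowers c) := by
      apply IsPGroup.of_card (n := 1)
      rw [Nat.card_zpowers, hc, pow_one]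
    obtain ⟨Q, hQ⟩ := hP.exists_le_sylow
    refine ⟨Q, le_antisymm ?_ hQ⟩
    have hc1 : Nat.card (Subgroup.zpowers c) = p := by rw [Nat.card_zpowers, hc]
    obtain ⟨n, hn⟩ := IsPGroup.iff_card.1 Q.isPGroup'
    have hdvd : Nat.card Q ∣ Nat.card K := Subgroup.card_subgroup_dvd_card _
    have hn1 : n ≤ 1 := by
      by_contra hlt
      push Not at hlt
      apply hp2
      refine dvd_trans (pow_dvd_pow p hlt) ?_
      rw [← hn]
      exact hdvd
    have hle : Nat.card Q ≤ Nat.card (Subgroup.zpowers c) := by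
      rw [hn, hc1]
      calc p ^ n ≤ p ^ 1 := Nat.pow_le_pow_right hp.out.pos hn1
        _ = p := pow_one p
    exact (Subgroup.eq_of_le_of_card_ge hQ hle).ge
  obtain ⟨Q, hQ⟩ := key a oa
  obtain ⟨Q₀, hQ₀⟩ := key a₀ oa₀
  obtain ⟨u, hu⟩ := MulAction.exists_smul_eq K Q₀ Q
  have hmap : (Subgroup.zpowers a) = (Subgroup.zpowers a₀).map (MulAut.conj u).toMonoidHom := by
    rw [← hQ, ← hQ₀, ← hu, Sylow.coe_subgroup_smul]
    rfl
  -- the fixed points
  have h1 : F y = (F y₀).image u.1 := by
    ext x
    simp only [Finset.mem_image, mem_F]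
    constructor
    · intro hx
      refine ⟨(u.1)⁻¹ x, ?_, by simp⟩
      have ha₀ : u * a₀ * u⁻¹ ∈ Subgroup.zpowers a := by
        rw [hmap]
        exact ⟨a₀, Subgroup.mem_zpowers a₀, rfl⟩
      obtain ⟨k, hk⟩ := ha₀
      have h2 : ((u * a₀ * u⁻¹ : K) : Equiv.Perm X) x = x := by
        rw [← hk]
        have : ((a ^ k : K) : Equiv.Perm X) = y ^ k := by simp [a]
        rw [this]
        exact mem_F_zpowers hx ⟨k, rfl⟩
      have h3 : ((u * a₀ * u⁻¹ : K) : Equiv.Perm X) x = u.1 (y₀ (u.1⁻¹ x)) := rfl
      rw [h3] at h2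
      apply u.1.injective
      rw [h2]
      simp
    · rintro ⟨z, hz, rfl⟩
      have ha : a ∈ (Subgroup.zpowers a₀).map (MulAut.conj u).toMonoidHom := by
        rw [← hmap]
        exact Subgroup.mem_zpowers a
      obtain ⟨b, ⟨k, rfl⟩, hb⟩ := ha
      have h4 : y = u.1 * y₀ ^ k * u.1⁻¹ := by
        have := congrArg Subtype.val hb
        simpa [a, a₀] using this.symm
      rw [h4]
      have h5 : (y₀ ^ k) z = z := mem_F_zpowers hz ⟨k, rfl⟩
      simp [h5]
  rw [h1, Finset.card_image_of_injective _ u.1.injective]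

/-- Fixed points modulo a prime. -/
theorem card_modEq_of_prime {σ : Equiv.Perm X} {p : ℕ} [hp : Fact p.Prime] (hσ : σ ^ p = 1)
    (S : Finset X) (hS : ∀ x ∈ S, σ x ∈ S) :
    S.card ≡ (S.filter fun x => σ x = x).card [MOD p] := by
  let f : Function.End S := fun x => ⟨σ x, hS _ x.2⟩
  have hpow : ∀ (k : ℕ) (x : S), ((f ^ k : Function.End S) x : X) = (σ ^ k) x.1 := by
    intro k
    induction k with
    | zero => intro x; rfl
    | succ k ih =>
      intro x
      rw [pow_succ, pow_succ]
      show (((f ^ k : Function.End S) (f x) : S) : X) = (σ ^ k) (σ x.1)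
      rw [ih]
  have hf : f ^ p ^ 1 = 1 := by
    rw [pow_one]
    funext x
    apply Subtype.ext
    rw [hpow, hσ]
    rfl
  have h := Equiv.Perm.card_fixedPoints_modEq (f := f) (p := p) (n := 1) hf
  have h1 : Fintype.card S = S.card := by simp
  have h2 : Fintype.card (Function.fixedPoints f) = (S.filter fun x => σ x = x).card := by
    rw [← Fintype.card_coe]
    apply Fintype.card_congr
    refine ⟨fun x => ⟨x.1.1, ?_⟩, fun x => ⟨⟨x.1, (Finset.mem_filter.1 x.2).1⟩, ?_⟩, ?_, ?_⟩
    · refine Finset.mem_filter.2 ⟨x.1.2, ?_⟩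
      have := x.2
      exact congrArg Subtype.val this
    · apply Subtype.ext
      exact (Finset.mem_filter.1 x.2).2
    · intro x
      rfl
    · intro x
      rfl
  rw [h1, h2] at h
  exact h

end General

/-! ### The explicit elements -/

def y₀ : ℕ := 961366033633990932421622662020352096
def z₀ : ℕ := 984247628525144725527431166921089184

theorem cy : checkAut y₀ = true := by decide +kernel
theorem cz : checkAut z₀ = true := by decide +kernel
theorem my : g y₀ ∈ Spor.M22 := g_mem_M22 cy (by decide +kernel) (by decide +kernel)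
theorem mz : g z₀ ∈ Spor.M22 := g_mem_M22 cz (by decide +kernel) (by decide +kernel)

/-- Iterates of a table. -/
def iter (P : ℕ) (i : ℕ) : ℕ → ℕ
  | 0 => i
  | n + 1 => img P (iter P i n)

theorem g_pow_pt {P : ℕ} (hP : validPerm P = true) (n : ℕ) {i : ℕ} (hi : i < 24) :
    ((g P) ^ n) (pt i) = pt (iter P i n) ∧ iter P i n < 24 := by
  induction n with
  | zero => exact ⟨rfl, hi⟩
  | succ n ih =>
    rw [pow_succ', Equiv.Perm.mul_apply, ih.1, g_pt hP ih.2]
    exact ⟨rfl, valid_img_lt hP ih.2⟩

theorem g_pow_eq_one {P n : ℕ} (hP : validPerm P = true)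
    (h : ∀ i < 24, iter P i n = i) : (g P) ^ n = 1 := by
  ext p
  have h1 := (g_pow_pt hP n (idx_lt p)).1
  rw [pt_idx, h _ (idx_lt p), pt_idx] at h1
  rw [h1]
  rfl

theorem g_ne_one {P : ℕ} (hP : validPerm P = true) {i : ℕ} (hi : i < 24) (h : img P i ≠ i) :
    g P ≠ 1 := by
  intro h1
  have h2 := g_pt hP hi
  rw [h1] at h2
  exact h (pt_injOn (valid_img_lt hP hi) hi h2.symm)

theorem oy : orderOf (g y₀) = 7 :=
  haveI : Fact (Nat.Prime 7) := ⟨by norm_num⟩
  orderOf_eq_prime (g_pow_eq_one (checkAut_valid cy) (by decide +kernel))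
    (g_ne_one (checkAut_valid cy) (i := 1) (by norm_num) (by decide +kernel))

theorem oz : orderOf (g z₀) = 5 :=
  haveI : Fact (Nat.Prime 5) := ⟨by norm_num⟩
  orderOf_eq_prime (g_pow_eq_one (checkAut_valid cz) (by decide +kernel))
    (g_ne_one (checkAut_valid cz) (i := 1) (by norm_num) (by decide +kernel))

/-- The fixed points of a table. -/
theorem card_F_g {P : ℕ} (hP : validPerm P = true) :
    (F (g P)).card = countUpTo (fun i => Nat.beq (img P i) i) 24 := by
  rw [countUpTo_eq]
  apply Finset.card_bij (fun p _ => idx p)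
  · intro p hp
    have h1 := mem_F.1 hp
    have h2 : idx (g P p) = img P (idx p) := idx_g hP p
    rw [h1] at h2
    simp only [Finset.mem_filter, Finset.mem_range]
    refine ⟨idx_lt p, ?_⟩
    rw [← h2]
    exact Nat.beq_refl _
  · intro a _ b _ h
    exact idx_injective h
  · intro i hi
    simp only [Finset.mem_filter, Finset.mem_range] at hi
    refine ⟨pt i, mem_F.2 ?_, idx_pt hi.1⟩
    rw [g_pt hP hi.1, Nat.eq_of_beq_eq_true hi.2]

theorem card_M22_not_sq7 : ¬ 7 ^ 2 ∣ Nat.card Spor.M22 := by rw [card_M22]; decide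
theorem card_M22_not_sq5 : ¬ 5 ^ 2 ∣ Nat.card Spor.M22 := by rw [card_M22]; decide

theorem F7 {y : Equiv.Perm GolayPt} (hy : y ∈ Spor.M22) (o : orderOf y = 7) : (F y).card = 3 := by
  haveI : Fact (Nat.Prime 7) := ⟨by norm_num⟩
  rw [card_F_of_prime card_M22_not_sq7 hy my o oy, card_F_g (checkAut_valid cy)]
  decide +kernel

theorem F5 {y : Equiv.Perm GolayPt} (hy : y ∈ Spor.M22) (o : orderOf y = 5) : (F y).card = 4 := by
  haveI : Fact (Nat.Prime 5) := ⟨by norm_num⟩
  rw [card_F_of_prime card_M22_not_sq5 hy mz o oz, card_F_g (checkAut_valid cz)]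
  decide +kernel

theorem F2 {y : Equiv.Perm GolayPt} (hy : y ∈ Spor.M22) (h2 : y * y = 1) (h1 : y ≠ 1) :
    (F y).card = 8 := by
  obtain ⟨x, hx, u, -, rfl⟩ := Cfsg.Agent.S5005.hinvol hy h2 h1
  rw [F_conj]
  have hx' : x = Cfsg.Agent.S5005.t := by simpa [Cfsg.Agent.S5005.ts] using hx
  subst hx'
  rw [card_F_g (checkAut_valid Cfsg.Agent.S5005.ct)]
  decide +kernel

theorem fix_none {σ : Equiv.Perm GolayPt} (h : σ ∈ Spor.M22) : σ none = none := by
  have := MulAction.mem_stabilizer_iff.1 h.1.2
  exact this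

theorem fix_zero {σ : Equiv.Perm GolayPt} (h : σ ∈ Spor.M22) : σ (some 0) = some 0 := by
  have := MulAction.mem_stabilizer_iff.1 h.2
  exact this

/-- Elements of the code group fixing the two points. -/
theorem mem_M22 {σ : Equiv.Perm GolayPt} (h : σ ∈ M24) (h1 : σ none = none) (h2 : σ (some 0) = some 0) :
    σ ∈ Spor.M22 :=
  ⟨⟨h, MulAction.mem_stabilizer_iff.2 h1⟩, MulAction.mem_stabilizer_iff.2 h2⟩

/-- The points moved by `M22`. -/
def Al (p : GolayPt) : Prop := p ≠ none ∧ p ≠ some 0

theorem none_ne_zero : (none : GolayPt) ≠ some 0 := by simp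

/-- Transitivity. -/
theorem exists_map {p q : GolayPt} (hp : Al p) (hq : Al q) : ∃ σ ∈ Spor.M22, σ p = q := by
  obtain ⟨σ, hσ, h1, h2, h3⟩ := exists_map_three (p := none) (q := some 0) (r := p)
    (p' := none) (q' := some 0) (r' := q) none_ne_zero hp.1.symm hp.2.symm none_ne_zero hq.1.symm hq.2.symm
  exact ⟨σ, mem_M22 hσ h1 h2, h3⟩

/-- Double transitivity. -/
theorem exists_map2 {p q r : GolayPt} (hp : Al p) (hq : Al q) (hr : Al r) (hpq : p ≠ q) (hpr : p ≠ r) :
    ∃ σ ∈ Spor.M22, σ p = p ∧ σ q = r := by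
  obtain ⟨σ, hσ, H⟩ := exists_map_tuple (k := 4) (by norm_num)
    ⟨![none, some 0, p, q], by
      intro a b hab
      have h1 := hp.1
      have h2 := hp.2
      have h3 := hq.1
      have h4 := hq.2
      fin_cases a <;> fin_cases b <;> simp_all⟩
    ⟨![none, some 0, p, r], by
      intro a b hab
      have h1 := hp.1
      have h2 := hp.2
      have h3 := hr.1
      have h4 := hr.2
      fin_cases a <;> fin_cases b <;> simp_all⟩
  refine ⟨σ, mem_M22 hσ (H 0) (H 1), H 2, H 3⟩

/-- A subgroup of order 20160 of `M22` fixes a point. -/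
theorem exists_fixed {U : Subgroup (Equiv.Perm GolayPt)} (hU : U ≤ Spor.M22) (hc : Nat.card U = 20160) :
    ∃ p, Al p ∧ ∀ u ∈ U, u p = p := by
  classical
  haveI h7 : Fact (Nat.Prime 7) := ⟨by norm_num⟩
  haveI h5 : Fact (Nat.Prime 5) := ⟨by norm_num⟩
  haveI h2 : Fact (Nat.Prime 2) := ⟨by norm_num⟩
  -- elements of order 7 and 5
  obtain ⟨y, oy'⟩ := exists_prime_orderOf_dvd_card' (G := U) 7 (by rw [hc]; decide)
  obtain ⟨z, oz'⟩ := exists_prime_orderOf_dvd_card' (G := U) 5 (by rw [hc]; decide)
  have oyc : orderOf y.1 = 7 := by rw [Subgroup.orderOf_coe]; exact oy'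
  have ozc : orderOf z.1 = 5 := by rw [Subgroup.orderOf_coe]; exact oz'
  have hFy := F7 (hU y.2) oyc
  have hFz := F5 (hU z.2) ozc
  -- the third fixed point of y
  have hn : none ∈ F y.1 := mem_F.2 (fix_none (hU y.2))
  have h0 : (some 0 : GolayPt) ∈ F y.1 := mem_F.2 (fix_zero (hU y.2))
  obtain ⟨p₀, hp₀, hp₁⟩ : ∃ p₀ ∈ F y.1, p₀ ∉ ({none, some 0} : Finset GolayPt) := by
    by_contra hno
    push Not at hno
    have h1 : (F y.1).card ≤ ({none, some 0} : Finset GolayPt).card :=
      Finset.card_le_card fun x hx => hno x hx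
    rw [hFy] at h1
    have h2 : ({none, some 0} : Finset GolayPt).card ≤ 2 := Finset.card_le_two
    omega
  have hp₀A : Al p₀ := by
    simp only [Finset.mem_insert, Finset.mem_singleton, not_or] at hp₁
    exact hp₁
  have hFyE : F y.1 = {none, some 0, p₀} := by
    symm
    apply Finset.eq_of_subset_of_card_le
    · intro x hx
      simp only [Finset.mem_insert, Finset.mem_singleton] at hx
      rcases hx with rfl | rfl | rfl
      · exact hn
      · exact h0
      · exact hp₀
    · rw [hFy, Finset.card_insert_of_notMem, Finset.card_insert_of_notMem, Finset.card_singleton]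
      · simpa using hp₀A.2.symm
      · simp only [Finset.mem_insert, Finset.mem_singleton, not_or]
        exact ⟨none_ne_zero, hp₀A.1.symm⟩
  -- the orbit
  let O : Finset GolayPt := Finset.univ.filter fun x => ∃ u ∈ U, u p₀ = x
  have hOp : p₀ ∈ O := Finset.mem_filter.2 ⟨Finset.mem_univ _, 1, U.one_mem, rfl⟩
  have hOinv : ∀ u ∈ U, ∀ x ∈ O, u x ∈ O := by
    intro u hu x hx
    obtain ⟨-, v, hv, rfl⟩ := Finset.mem_filter.1 hx
    exact Finset.mem_filter.2 ⟨Finset.mem_univ _, u * v, U.mul_mem hu hv, rfl⟩
  have hOA : ∀ x ∈ O, Al x := by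
    intro x hx
    obtain ⟨-, v, hv, rfl⟩ := Finset.mem_filter.1 hx
    constructor
    · intro h
      have h1 := fix_none (hU hv)
      exact hp₀A.1 (v.injective (h.trans h1.symm))
    · intro h
      have h1 := fix_zero (hU hv)
      exact hp₀A.2 (v.injective (h.trans h1.symm))
  have hOcard : O.card ∣ 20160 := by
    have h1 : (O : Set GolayPt) = MulAction.orbit U p₀ := by
      ext x
      simp only [O, Finset.coe_filter, Finset.mem_univ, true_and, Set.mem_ofPred_eq, MulAction.mem_orbit_iff]
      constructor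
      · rintro ⟨u, hu, rfl⟩
        exact ⟨⟨u, hu⟩, rfl⟩
      · rintro ⟨u, rfl⟩
        exact ⟨u.1, u.2, rfl⟩
    have h2 : (MulAction.stabilizer U p₀).index = O.card := by
      rw [MulAction.index_stabilizer, ← h1, Set.ncard_coe_finset]
    rw [← h2, ← hc]
    exact Subgroup.index_dvd_card _
  have hO22 : O.card ≤ 22 := by
    have h1 : O ⊆ (Finset.univ.erase none).erase (some 0) := by
      intro x hx
      have := hOA x hx
      simp only [Finset.mem_erase, Finset.mem_univ, and_true]
      exact ⟨this.2, this.1⟩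
    have h2 := Finset.card_le_card h1
    rw [Finset.card_erase_of_mem (by simp), Finset.card_erase_of_mem (by simp), Finset.card_univ,
      card_golayPt] at h2
    omega
  -- modulo 7
  have hmod7 : O.card % 7 = 1 := by
    have h1 := card_modEq_of_prime (σ := y.1) (p := 7) (by rw [← oyc]; exact pow_orderOf_eq_one _) O
      (fun x hx => hOinv _ y.2 x hx)
    have h2 : (O.filter fun x => y.1 x = x) = {p₀} := by
      ext x
      simp only [Finset.mem_filter, Finset.mem_singleton]
      constructor
      · rintro ⟨h3, h4⟩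
        have h5 : x ∈ F y.1 := mem_F.2 h4
        rw [hFyE] at h5
        simp only [Finset.mem_insert, Finset.mem_singleton] at h5
        rcases h5 with rfl | rfl | rfl
        · exact absurd rfl (hOA _ h3).1
        · exact absurd rfl (hOA _ h3).2
        · rfl
      · rintro rfl
        exact ⟨hOp, mem_F.1 hp₀⟩
    rw [h2, Finset.card_singleton] at h1
    exact h1
  -- modulo 5
  have hmod5 : O.card % 5 ≤ 2 := by
    have h1 := card_modEq_of_prime (σ := z.1) (p := 5) (by rw [← ozc]; exact pow_orderOf_eq_one _) O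
      (fun x hx => hOinv _ z.2 x hx)
    have h2 : (O.filter fun x => z.1 x = x).card ≤ 2 := by
      have h3 : (insert none (insert (some 0) (O.filter fun x => z.1 x = x))) ⊆ F z.1 := by
        intro x hx
        simp only [Finset.mem_insert, Finset.mem_filter] at hx
        rcases hx with rfl | rfl | hx
        · exact mem_F.2 (fix_none (hU z.2))
        · exact mem_F.2 (fix_zero (hU z.2))
        · exact mem_F.2 hx.2
      have h4 := Finset.card_le_card h3
      rw [hFz, Finset.card_insert_of_notMem, Finset.card_insert_of_notMem] at h4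
      · omega
      · intro hx
        exact (hOA _ (Finset.mem_filter.1 hx).1).2 rfl
      · simp only [Finset.mem_insert, Finset.mem_filter, not_or]
        exact ⟨none_ne_zero, fun hx => (hOA _ hx.1).1 rfl⟩
    have h5 : O.card % 5 = (O.filter fun x => z.1 x = x).card % 5 := h1
    rw [h5]
    exact (Nat.mod_le _ _).trans h2
  -- the cases
  have hcases : O.card = 1 ∨ O.card = 15 := by
    have hd : ∀ k ≤ 22, k ∣ 20160 → k % 7 = 1 → k % 5 ≤ 2 → k = 1 ∨ k = 15 := by decide
    exact hd _ hO22 hOcard hmod7 hmod5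
  rcases hcases with h1 | h15
  · refine ⟨p₀, hp₀A, fun u hu => ?_⟩
    have h3 : u p₀ ∈ O := hOinv u hu _ hOp
    obtain ⟨a, ha⟩ := Finset.card_eq_one.1 h1
    rw [ha] at h3 hOp
    rw [Finset.mem_singleton] at h3 hOp
    rw [h3, hOp]
  · exfalso
    -- the complement of size 7
    let T : Finset GolayPt := ((Finset.univ.erase none).erase (some 0)) \ O
    have hTc : T.card = 7 := by
      have h1 : O ⊆ (Finset.univ.erase none).erase (some 0) := by
        intro x hx
        have := hOA x hx
        simp only [Finset.mem_erase, Finset.mem_univ, and_true]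
        exact ⟨this.2, this.1⟩
      rw [Finset.card_sdiff_of_subset h1, h15, Finset.card_erase_of_mem (by simp), Finset.card_erase_of_mem (by simp),
        Finset.card_univ, card_golayPt]
    have hTinv : ∀ u ∈ U, ∀ x, u x ∈ T ↔ x ∈ T := by
      intro u hu x
      simp only [T, Finset.mem_sdiff, Finset.mem_erase, Finset.mem_univ, and_true]
      have h3 : u x ≠ some 0 ↔ x ≠ some 0 := by
        rw [not_iff_not]
        constructor
        · intro h
          have h1 := fix_zero (hU hu)
          exact u.injective (h.trans h1.symm)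
        · rintro rfl
          exact fix_zero (hU hu)
      have h4 : u x ≠ none ↔ x ≠ none := by
        rw [not_iff_not]
        constructor
        · intro h
          have h1 := fix_none (hU hu)
          exact u.injective (h.trans h1.symm)
        · rintro rfl
          exact fix_none (hU hu)
      have h5 : u x ∉ O ↔ x ∉ O := by
        rw [not_iff_not]
        constructor
        · intro h
          have := hOinv u⁻¹ (U.inv_mem hu) _ h
          simpa using this
        · exact hOinv u hu x
      rw [h3, h4, h5]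
    -- the action on the complement
    let φ : U →* Equiv.Perm {x // x ∈ T} :=
      { toFun := fun u => u.1.subtypePerm (hTinv u.1 u.2)
        map_one' := by
          ext x
          rfl
        map_mul' := by
          intro a b
          ext x
          rfl }
    have hU2 : ∃ t : φ.ker, orderOf t = 2 := by
      apply exists_prime_orderOf_dvd_card'
      -- the kernel has even order
      by_contra hodd
      have h3 : Nat.card φ.ker * φ.ker.index = 20160 := by
        rw [← hc]
        exact Subgroup.card_mul_index _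
      have h4 : φ.ker.index ∣ 5040 := by
        have h5 : φ.ker.index = Nat.card φ.range := Subgroup.index_ker φ
        rw [h5]
        have h6 : Nat.card φ.range ∣ Nat.card (Equiv.Perm {x // x ∈ T}) :=
          Subgroup.card_subgroup_dvd_card _
        have h6' : Nat.card (Equiv.Perm {x // x ∈ T}) = 5040 := by
          rw [Nat.card_eq_fintype_card, Fintype.card_perm, Fintype.card_coe, hTc]
          rfl
        rw [h6'] at h6
        exact h6
      have h7 : Nat.Coprime (Nat.card φ.ker) 64 := by
        have : Nat.Coprime (Nat.card φ.ker) (2 ^ 6) :=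
          Nat.Coprime.pow_right 6 ((Nat.Prime.coprime_iff_not_dvd (by norm_num)).2 hodd).symm
        simpa using this
      have h8 : 64 ∣ φ.ker.index := by
        apply h7.symm.dvd_of_dvd_mul_left
        rw [h3]
        decide
      have h9 := h8.trans h4
      revert h9
      decide
    obtain ⟨t, ot⟩ := hU2
    have ht1 : t.1.1 * t.1.1 = 1 := by
      have h3 : t ^ 2 = 1 := by rw [← ot]; exact pow_orderOf_eq_one t
      have h4 := congrArg (fun x : φ.ker => ((x : U) : Equiv.Perm GolayPt)) h3
      simpa [pow_two] using h4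
    have ht2 : t.1.1 ≠ 1 := by
      intro h
      have h3 : t = 1 := Subtype.ext (Subtype.ext h)
      rw [h3, orderOf_one] at ot
      omega
    have hF8 := F2 (hU t.1.2) ht1 ht2
    -- it fixes the complement
    have hsub : insert none (insert (some 0) T) ⊆ F t.1.1 := by
      intro x hx
      simp only [Finset.mem_insert] at hx
      rcases hx with rfl | rfl | hx
      · exact mem_F.2 (fix_none (hU t.1.2))
      · exact mem_F.2 (fix_zero (hU t.1.2))
      · have h3 : φ t.1 = 1 := t.2
        have h4 := congrArg (fun f : Equiv.Perm {x // x ∈ T} => (f ⟨x, hx⟩ : GolayPt)) h3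
        exact mem_F.2 h4
    have h4 := Finset.card_le_card hsub
    rw [hF8, Finset.card_insert_of_notMem, Finset.card_insert_of_notMem, hTc] at h4
    · omega
    · simp [T]
    · simp [T, none_ne_zero]

/-- **A subgroup of index 22 of `M22` is a point stabiliser.** -/
theorem eq_stab {U : Subgroup (Equiv.Perm GolayPt)} (hU : U ≤ Spor.M22) (hc : Nat.card U = 20160) :
    ∃ p, Al p ∧ ∀ σ ∈ Spor.M22, σ ∈ U ↔ σ p = p := by
  classical
  obtain ⟨p, hp, hfix⟩ := exists_fixed hU hc
  refine ⟨p, hp, ?_⟩
  -- the stabiliser of p in M22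
  let S : Subgroup (Equiv.Perm GolayPt) := Spor.M22 ⊓ MulAction.stabilizer _ p
  have hUS : U ≤ S := fun u hu => ⟨hU hu, hfix u hu⟩
  -- its order
  have hO : (MulAction.orbit Spor.M22 p) = {x | Al x} := by
    ext x
    simp only [MulAction.mem_orbit_iff, Set.mem_ofPred_eq]
    constructor
    · rintro ⟨⟨σ, hσ⟩, rfl⟩
      constructor
      · intro h
        have h1 := fix_none hσ
        exact hp.1 (σ.injective (h.trans h1.symm))
      · intro h
        have h1 := fix_zero hσ
        exact hp.2 (σ.injective (h.trans h1.symm))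
    · intro hx
      obtain ⟨σ, hσ, h⟩ := exists_map hp hx
      exact ⟨⟨σ, hσ⟩, h⟩
  have hcard : ({x | Al x} : Set GolayPt).ncard = 22 := by
    have h1 : ({x | Al x} : Set GolayPt) = ↑((Finset.univ.erase none).erase (some 0) : Finset GolayPt) := by
      ext x
      simp only [Al, Set.mem_ofPred_eq, Finset.coe_erase, Finset.coe_univ, Set.mem_diff, Set.mem_univ,
        Set.mem_singleton_iff, true_and]
    rw [h1, Set.ncard_coe_finset, Finset.card_erase_of_mem (by simp), Finset.card_erase_of_mem (by simp),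
      Finset.card_univ, card_golayPt]
  have hidx : (MulAction.stabilizer Spor.M22 p).index = 22 := by
    rw [MulAction.index_stabilizer, hO, hcard]
  have hSc : Nat.card (MulAction.stabilizer Spor.M22 p) = 20160 := by
    have h1 := (MulAction.stabilizer Spor.M22 p).card_mul_index
    rw [hidx, card_M22] at h1
    omega
  have hSe : Nat.card S = Nat.card (MulAction.stabilizer Spor.M22 p) := by
    apply Nat.card_congr
    refine ⟨fun x => ⟨⟨x.1, x.2.1⟩, x.2.2⟩, fun x => ⟨x.1.1, x.1.2, x.2⟩, fun x => rfl, fun x => rfl⟩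
  have hE : U = S := Subgroup.eq_of_le_of_card_ge hUS (by rw [hSe, hSc, hc])
  intro σ hσ
  constructor
  · intro h
    exact hfix σ h
  · intro h
    rw [hE]
    exact ⟨hσ, h⟩

end Cfsg.Agent.Lib.HSRec.M22Sub
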