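import Mathlib

/-!
# The orbital graph of a rank 3 permutation group with subdegrees of different sizes
-/

set_option autoImplicit false

namespace Cfsg.Agent.Lib.HSRec.Rank3

open MulAction

section SRG

variable {V : Type*} [Fintype V] [DecidableEq V] {Γ : SimpleGraph V} [DecidableRel Γ.Adj]
  {n k μ : ℕ}

/-- A strongly regular graph with `λ = k - 1` is a disjoint union of cliques. -/
theorem dvd_of_srg (h : Γ.IsSRGWith n k (k - 1) μ) (hk : 0 < k) : (k + 1) ∣ n := by
  let N : V → Finset V := fun y => insert y (Γ.neighborFinset y)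
  have hmemN : ∀ y x, x ∈ N y ↔ x = y ∨ Γ.Adj y x := by
    intro y x
    simp [N]
  have hcardN : ∀ y, (N y).card = k + 1 := by
    intro y
    rw [Finset.card_insert_of_notMem (by simp)]
    have := h.regular y
    rw [SimpleGraph.degree] at this
    rw [this]
  have key : ∀ y z, Γ.Adj y z → ∀ x, Γ.Adj y x → x ≠ z → Γ.Adj z x := by
    intro y z hyz x hyx hxz
    have h1 := h.of_adj y z hyz
    have h2 : (Γ.neighborFinset y \ {z}).card = k - 1 := by
      rw [Finset.card_sdiff_of_subset (by simpa using hyz)]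
      have := h.regular y
      rw [SimpleGraph.degree] at this
      rw [this, Finset.card_singleton]
    have h3 : (Set.toFinset (Γ.commonNeighbors y z)) ⊆ Γ.neighborFinset y \ {z} := by
      intro u hu
      simp only [Set.mem_toFinset, SimpleGraph.mem_commonNeighbors] at hu
      simp only [Finset.mem_sdiff, SimpleGraph.mem_neighborFinset, Finset.mem_singleton]
      refine ⟨hu.1, ?_⟩
      rintro rfl
      exact hu.2.ne rfl
    have h4 : (Set.toFinset (Γ.commonNeighbors y z)) = Γ.neighborFinset y \ {z} := by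
      apply Finset.eq_of_subset_of_card_le h3
      rw [h2, Set.toFinset_card, h1]
    have h5 : x ∈ Γ.neighborFinset y \ {z} := by
      simp [hyx, hxz]
    rw [← h4] at h5
    simp only [Set.mem_toFinset, SimpleGraph.mem_commonNeighbors] at h5
    exact h5.2
  have hsub : ∀ y z, Γ.Adj y z → N y ⊆ N z := by
    intro y z hyz x hx
    rw [hmemN] at hx ⊢
    rcases hx with rfl | hx
    · exact Or.inr hyz.symm
    · by_cases hxz : x = z
      · exact Or.inl hxz
      · exact Or.inr (key y z hyz x hx hxz)
  have heq : ∀ y z, Γ.Adj y z → N y = N z := fun y z hyz =>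
    Finset.Subset.antisymm (hsub y z hyz) (hsub z y hyz.symm)
  have hfib : ∀ y₀, (Finset.univ.filter fun y => N y = N y₀) = N y₀ := by
    intro y₀
    ext y
    simp only [Finset.mem_filter, Finset.mem_univ, true_and]
    constructor
    · intro hy
      rw [← hy, hmemN]
      exact Or.inl rfl
    · intro hy
      rw [hmemN] at hy
      rcases hy with rfl | hy
      · rfl
      · exact (heq y₀ y hy).symm
  have hsum := Finset.card_eq_sum_card_fiberwise (s := (Finset.univ : Finset V)) (f := N)
    (t := Finset.univ.image N) (fun x _ => Finset.mem_image_of_mem _ (Finset.mem_univ _))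
  rw [Finset.card_univ, h.card] at hsum
  rw [hsum]
  apply Finset.dvd_sum
  intro B hB
  obtain ⟨y₀, -, rfl⟩ := Finset.mem_image.1 hB
  rw [hfib, hcardN]

end SRG

variable {Ω : Type*} [Fintype Ω] [DecidableEq Ω] {G : Subgroup (Equiv.Perm Ω)}

section Group

theorem smul_eq (g : G) (x : Ω) : g • x = g.1 x := rfl

variable [IsPretransitive G Ω] {a b c : Ω} {k l : ℕ}

/-- The hypotheses of the section. -/
structure Setup (G : Subgroup (Equiv.Perm Ω)) (a b c : Ω) (k l : ℕ) : Prop where
  hb : (orbit (stabilizer G a) b).ncard = k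
  hc : (orbit (stabilizer G a) c).ncard = l
  hn : 1 + k + l = Fintype.card Ω
  hk : 1 < k
  hl : 1 < l
  hkl : k ≠ l

variable (S : Setup G a b c k l)
include S

theorem orbit_a : orbit (stabilizer G a) a = {a} := by
  ext x
  simp only [mem_orbit_iff, Set.mem_singleton_iff]
  constructor
  · rintro ⟨h, rfl⟩
    exact h.2
  · rintro rfl
    exact ⟨1, rfl⟩

theorem a_not_mem_b : a ∉ orbit (stabilizer G a) b := by
  intro h
  have h1 := orbit_eq_iff.2 h
  have h2 := S.hb
  rw [← h1, orbit_a S, Set.ncard_singleton] at h2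
  exact absurd S.hk (by omega)

theorem a_not_mem_c : a ∉ orbit (stabilizer G a) c := by
  intro h
  have h1 := orbit_eq_iff.2 h
  have h2 := S.hc
  rw [← h1, orbit_a S, Set.ncard_singleton] at h2
  exact absurd S.hl (by omega)

theorem disj : Disjoint (orbit (stabilizer G a) b) (orbit (stabilizer G a) c) := by
  rw [Set.disjoint_left]
  intro x h1 h2
  have h3 := orbit_eq_iff.2 h1
  have h4 := orbit_eq_iff.2 h2
  apply S.hkl
  rw [← S.hb, ← S.hc, ← h3, h4]

theorem partition (x : Ω) : x = a ∨ x ∈ orbit (stabilizer G a) b ∨ x ∈ orbit (stabilizer G a) c := by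
  have h1 : Disjoint ({a} : Set Ω) (orbit (stabilizer G a) b ∪ orbit (stabilizer G a) c) := by
    rw [Set.disjoint_singleton_left]
    rintro (h | h)
    · exact a_not_mem_b S h
    · exact a_not_mem_c S h
  have h2 : (({a} : Set Ω) ∪ (orbit (stabilizer G a) b ∪ orbit (stabilizer G a) c)).ncard =
      Fintype.card Ω := by
    rw [Set.ncard_union_eq h1 (Set.toFinite _) (Set.toFinite _),
      Set.ncard_union_eq (disj S) (Set.toFinite _) (Set.toFinite _), Set.ncard_singleton, S.hb, S.hc, ← S.hn]
    ring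
  have h3 : ({a} : Set Ω) ∪ (orbit (stabilizer G a) b ∪ orbit (stabilizer G a) c) = Set.univ := by
    apply Set.eq_of_subset_of_ncard_le (Set.subset_univ _)
    rw [h2, Set.ncard_univ, Nat.card_eq_fintype_card]
  have h4 : x ∈ ({a} : Set Ω) ∪ (orbit (stabilizer G a) b ∪ orbit (stabilizer G a) c) := by
    rw [h3]
    trivial
  simpa using h4

theorem a_ne_b : a ≠ b := by
  rintro rfl
  exact a_not_mem_b S (mem_orbit_self _)

/-- The stabiliser of two points. -/
theorem card_stab_stab (x : Ω) :
    Nat.card (stabilizer (stabilizer G a) x) = Nat.card (stabilizer G a ⊓ stabilizer G x : Subgroup G) := by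
  apply Nat.card_congr
  refine ⟨fun h => ⟨h.1.1, h.1.2, ?_⟩, fun h => ⟨⟨h.1, h.2.1⟩, ?_⟩, fun h => rfl, fun h => rfl⟩
  · exact h.2
  · exact h.2.2

theorem exists_swap : ∃ w : G, w • a = b ∧ w • b = a := by
  obtain ⟨g₀, hg₀⟩ := exists_smul_eq G a b
  set x : Ω := g₀⁻¹ • a with hx
  have hxa : x ≠ a := by
    intro h
    apply a_ne_b S
    rw [← hg₀]
    rw [hx] at h
    have := congrArg (fun y => g₀ • y) h
    simp only [smul_inv_smul] at this
    exact this
  have hcard : Nat.card (stabilizer G a ⊓ stabilizer G x : Subgroup G) =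
      Nat.card (stabilizer G a ⊓ stabilizer G b : Subgroup G) := by
    apply Nat.card_congr
    have hgx : g₀ • x = a := by simp [hx]
    refine ⟨fun h => ⟨g₀ * h.1 * g₀⁻¹, ?_, ?_⟩, fun h => ⟨g₀⁻¹ * h.1 * g₀, ?_, ?_⟩, ?_, ?_⟩
    · show (g₀ * h.1 * g₀⁻¹) • a = a
      rw [mul_smul, mul_smul, ← hx, (mem_stabilizer_iff.1 h.2.2), hgx]
    · show (g₀ * h.1 * g₀⁻¹) • b = b
      rw [mul_smul, mul_smul, ← hg₀, inv_smul_smul, (mem_stabilizer_iff.1 h.2.1)]
    · show (g₀⁻¹ * h.1 * g₀) • a = a
      rw [mul_smul, mul_smul, hg₀, (mem_stabilizer_iff.1 h.2.2), ← hg₀, inv_smul_smul]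
    · show (g₀⁻¹ * h.1 * g₀) • x = x
      rw [mul_smul, mul_smul, hgx, (mem_stabilizer_iff.1 h.2.1), ← hx]
    · intro h
      apply Subtype.ext
      show g₀⁻¹ * (g₀ * h.1 * g₀⁻¹) * g₀ = h.1
      group
    · intro h
      apply Subtype.ext
      show g₀ * (g₀⁻¹ * h.1 * g₀) * g₀⁻¹ = h.1
      group
  have hnc : x ∉ orbit (stabilizer G a) c := by
    intro h
    have h1 := orbit_eq_iff.2 h
    have h2 : (orbit (stabilizer G a) x).ncard = (orbit (stabilizer G a) b).ncard := by
      rw [← index_stabilizer, ← index_stabilizer]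
      have e1 := (stabilizer (stabilizer G a) x).card_mul_index
      have e2 := (stabilizer (stabilizer G a) b).card_mul_index
      rw [card_stab_stab S x, hcard, ← card_stab_stab S b] at e1
      have hpos : 0 < Nat.card (stabilizer (stabilizer G a) b) := Nat.card_pos
      exact Nat.eq_of_mul_eq_mul_left hpos (e1.trans e2.symm)
    rw [h1, S.hb, S.hc] at h2
    exact S.hkl h2.symm
  rcases partition S x with h | h | h
  · exact absurd h hxa
  · obtain ⟨h', hh⟩ := mem_orbit_iff.1 h
    refine ⟨g₀ * h'.1, ?_, ?_⟩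
    · rw [mul_smul, (mem_stabilizer_iff.1 h'.2 : h'.1 • a = a), hg₀]
    · rw [mul_smul]
      have : h'.1 • b = x := hh
      rw [this, hx, smul_inv_smul]
  · exact absurd h hnc

omit S in
/-- The orbital graph. -/
def graph (hsw : ∃ w : G, w • a = b ∧ w • b = a) (hab : a ≠ b) : SimpleGraph Ω where
  Adj u v := ∃ g : G, g • a = u ∧ g • b = v
  symm := ⟨by
    rintro u v ⟨g, h1, h2⟩
    obtain ⟨w, h3, h4⟩ := hsw
    exact ⟨g * w, by rw [mul_smul, h3, h2], by rw [mul_smul, h4, h1]⟩⟩
  loopless := ⟨by
    rintro u ⟨g, h1, h2⟩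
    exact hab (smul_left_cancel g (h1.trans h2.symm))⟩

/-! ### Properties of the orbital graph -/

section Graph

omit S

variable {hsw : ∃ w : G, w • a = b ∧ w • b = a} {hab : a ≠ b}

theorem adj_iff {u v : Ω} : (graph hsw hab).Adj u v ↔ ∃ g : G, g • a = u ∧ g • b = v := Iff.rfl

theorem adj_smul (g : G) {u v : Ω} : (graph hsw hab).Adj (g • u) (g • v) ↔ (graph hsw hab).Adj u v := by
  constructor
  · rintro ⟨h, h1, h2⟩
    refine ⟨g⁻¹ * h, ?_, ?_⟩
    · rw [mul_smul, h1, inv_smul_smul]
    · rw [mul_smul, h2, inv_smul_smul]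
  · rintro ⟨h, rfl, rfl⟩
    exact ⟨g * h, mul_smul _ _ _, mul_smul _ _ _⟩

theorem adj_a_iff {v : Ω} : (graph hsw hab).Adj a v ↔ v ∈ orbit (stabilizer G a) b := by
  constructor
  · rintro ⟨g, h1, rfl⟩
    exact ⟨⟨g, h1⟩, rfl⟩
  · rintro ⟨h, rfl⟩
    exact ⟨h.1, h.2, rfl⟩

theorem ncard_common_smul (g : G) (u v : Ω) :
    ((graph hsw hab).commonNeighbors (g • u) (g • v)).ncard =
      ((graph hsw hab).commonNeighbors u v).ncard := by
  have h : (graph hsw hab).commonNeighbors (g • u) (g • v) =
      (fun x => g • x) '' (graph hsw hab).commonNeighbors u v := by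
    ext x
    simp only [SimpleGraph.mem_commonNeighbors, Set.mem_image]
    constructor
    · rintro ⟨h1, h2⟩
      refine ⟨g⁻¹ • x, ⟨?_, ?_⟩, smul_inv_smul _ _⟩
      · rw [← adj_smul g, smul_inv_smul]
        exact h1
      · rw [← adj_smul g, smul_inv_smul]
        exact h2
    · rintro ⟨y, ⟨h1, h2⟩, rfl⟩
      exact ⟨(adj_smul g).2 h1, (adj_smul g).2 h2⟩
  rw [h, Set.ncard_image_of_injective _ (MulAction.injective g)]

theorem ncard_nb (S : Setup G a b c k l) (v : Ω) :
    ((graph hsw hab).neighborSet v).ncard = k := by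
  obtain ⟨g, rfl⟩ := exists_smul_eq G a v
  have h : (graph hsw hab).neighborSet (g • a) = (fun x => g • x) '' orbit (stabilizer G a) b := by
    ext x
    simp only [SimpleGraph.mem_neighborSet, Set.mem_image]
    constructor
    · intro h1
      refine ⟨g⁻¹ • x, ?_, smul_inv_smul _ _⟩
      rw [← adj_a_iff (hsw := hsw) (hab := hab), ← adj_smul g, smul_inv_smul]
      exact h1
    · rintro ⟨y, h1, rfl⟩
      exact (adj_smul g).2 (adj_a_iff.2 h1)
  rw [h, Set.ncard_image_of_injective _ (MulAction.injective g), S.hb]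

/-- The orbital graph is strongly regular. -/
theorem isSRG (S : Setup G a b c k l) [DecidableRel (graph hsw hab).Adj] :
    (graph hsw hab).IsSRGWith (Fintype.card Ω) k ((graph hsw hab).commonNeighbors a b).ncard
      ((graph hsw hab).commonNeighbors a c).ncard where
  card := rfl
  regular := by
    intro v
    rw [← SimpleGraph.card_neighborSet_eq_degree, ← Nat.card_eq_fintype_card, Nat.card_coe_set_eq]
    exact ncard_nb S v
  of_adj := by
    rintro v w ⟨g, rfl, rfl⟩
    rw [← Nat.card_eq_fintype_card, Nat.card_coe_set_eq]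
    exact ncard_common_smul g a b
  of_not_adj := by
    intro v w hne hna
    obtain ⟨g, rfl⟩ := exists_smul_eq G a v
    have h1 : g⁻¹ • w ≠ a := by
      intro h
      apply hne
      rw [← h, smul_inv_smul]
    have h2 : g⁻¹ • w ∉ orbit (stabilizer G a) b := by
      intro h
      apply hna
      have h3 := (adj_smul (hsw := hsw) (hab := hab) g).2 (adj_a_iff.2 h)
      rwa [smul_inv_smul] at h3
    rcases partition S (g⁻¹ • w) with h | h | h
    · exact absurd h h1
    · exact absurd h h2
    · obtain ⟨u, hu⟩ := mem_orbit_iff.1 h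
      have hu' : u.1 • c = g⁻¹ • w := hu
      have hw : w = (g * u.1) • c := by
        rw [mul_smul, hu', smul_inv_smul]
      have hv : g • a = (g * u.1) • a := by
        rw [mul_smul, (mem_stabilizer_iff.1 u.2 : u.1 • a = a)]
      rw [← Nat.card_eq_fintype_card, Nat.card_coe_set_eq, hw, hv]
      exact ncard_common_smul _ a c

/-- The two possibilities for the number of common neighbours of adjacent vertices, when the
stabiliser of two adjacent points is transitive on the other neighbours. -/
theorem ell_cases (S : Setup G a b c k l)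
    (hT : ∀ x y, x ∈ orbit (stabilizer G a) b → y ∈ orbit (stabilizer G a) b → x ≠ b → y ≠ b →
      ∃ u : G, u • a = a ∧ u • b = b ∧ u • x = y) :
    ((graph hsw hab).commonNeighbors a b).ncard = 0 ∨
      ((graph hsw hab).commonNeighbors a b).ncard = k - 1 := by
  by_cases hW : ((graph hsw hab).commonNeighbors a b) = ∅
  · left
    rw [hW, Set.ncard_empty]
  · right
    obtain ⟨x, hx⟩ := Set.nonempty_iff_ne_empty.2 hW
    rw [SimpleGraph.mem_commonNeighbors] at hx
    have hxb : x ≠ b := fun h => by
      rw [h] at hx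
      exact hx.2.ne rfl
    have hxO := adj_a_iff.1 hx.1
    have h1 : (graph hsw hab).commonNeighbors a b = orbit (stabilizer G a) b \ {b} := by
      ext y
      simp only [SimpleGraph.mem_commonNeighbors, Set.mem_diff, Set.mem_singleton_iff]
      constructor
      · rintro ⟨h1, h2⟩
        refine ⟨adj_a_iff.1 h1, ?_⟩
        rintro rfl
        exact h2.ne rfl
      · rintro ⟨h1, h2⟩
        obtain ⟨u, u1, u2, u3⟩ := hT x y hxO h1 hxb h2
        have h3 := (adj_smul (hsw := hsw) (hab := hab) u).2 hx.1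
        have h4 := (adj_smul (hsw := hsw) (hab := hab) u).2 hx.2
        rw [u1, u3] at h3
        rw [u2, u3] at h4
        exact ⟨h3, h4⟩
    rw [h1, Set.ncard_diff_singleton_of_mem (mem_orbit_self _), S.hb]

end Graph

end Group

end Cfsg.Agent.Lib.HSRec.Rank3
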